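import Cfsg.Agent.Lib.TC.Data.HeS5.Arr
import Cfsg.Agent.Lib.TC.Data.HeS5.K0
import Cfsg.Agent.Lib.TC.Data.HeS5.P0

set_option autoImplicit false

namespace Cfsg.Agent.Lib.TC.Data.HeS5

open Cfsg.Agent.Lib.TC

theorem doneK : Done Fk 256 := by
  have h0 := Done.zero Fk
  have h1 : Done Fk 256 := Done.step h0 K0_ok rfl
  exact h1

theorem doneP : Done Fp 3 := by
  have h0 := Done.zero Fp
  have h1 : Done Fp 3 := Done.step h0 P0_ok rfl
  exact h1

noncomputable def invp (j : ℕ) : ℕ := List.getD [0,1] j 0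

theorem hsig : ∀ j, j < ([3,6] : List ℕ).length → ([3,6] : List ℕ).getD j 0 < G.He.sys.ng ∧ invp j < ([3,6] : List ℕ).length ∧ ([3,6] : List ℕ).getD (invp j) 0 = G.He.sys.inv (([3,6] : List ℕ).getD j 0) := by decide +kernel

theorem hlett : ∀ w ∈ words, ∀ g ∈ w, g < 3 := by decide +kernel

theorem hlet2 : ∀ w ∈ words, ∀ g ∈ w, g < ([3,6] : List ℕ).length := by decide +kernel

theorem hrelW : ∀ w ∈ words.take 3, isPseudo ([3,6] : List ℕ).length invp w = true ∨ (w.map fun j => ([3,6] : List ℕ).getD j 0) ∈ G.He.relWords := by decide +kernel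

theorem hsubW : ∀ w ∈ words.drop 3, ∃ g ∈ ([6] : List ℕ), (w.map fun j => ([3,6] : List ℕ).getD j 0) = [g] := by decide +kernel

theorem hnm0 : aN 0 = 0 := by decide +kernel

theorem hnrel : cert.nrel ≤ cert.nW := by decide +kernel

theorem hnW : cert.nW = words.length := by decide +kernel

theorem idx : (G.He.sys.letL [6]).relIndex (G.He.sys.letL [3,6]) ≠ 0 ∧ (G.He.sys.letL [6]).relIndex (G.He.sys.letL [3,6]) ≤ 3 :=
  G.He.sys.relIndex_letL [3,6] [6] invp hsig cert words rfl rfl rfl hnW hnrel hlett hlet2 (fun w hw => (hrelW w hw).imp id G.He.of_mem_relWords) hsubW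
    (fun k hk => guard_zero 256 _ k hk) doneK 3 aN tT (by decide) hnm0 doneP

end Cfsg.Agent.Lib.TC.Data.HeS5
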