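import Cfsg.Agent.Lib.TC.G.He
import Cfsg.Agent.Lib.TC.Simple

set_option autoImplicit false

namespace Cfsg.Agent.Lib.TC.Data.HeS5

open Cfsg.Agent.Lib.TC

noncomputable def aE_0_0 (k : ℕ) : ℕ := Nat.land (Nat.shiftRight (nat_lit 0x4980e80315) (Nat.mul (Nat.land k (nat_lit 255)) (nat_lit 5))) (nat_lit 31)
noncomputable def aE (k : ℕ) : ℕ := Bool.rec (nat_lit 0) (aE_0_0 k) (Nat.blt k (nat_lit 256))

noncomputable def aR_0_0 (k : ℕ) : ℕ := Nat.land (Nat.shiftRight (nat_lit 0x9325000003003100) (Nat.mul (Nat.land k (nat_lit 255)) (nat_lit 8))) (nat_lit 255)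
noncomputable def aR (k : ℕ) : ℕ := Bool.rec (nat_lit 0) (aR_0_0 k) (Nat.blt k (nat_lit 256))

noncomputable def aK_0_0 (k : ℕ) : ℕ := Nat.land (Nat.shiftRight (nat_lit 0x100) (Nat.mul (Nat.land k (nat_lit 255)) (nat_lit 3))) (nat_lit 7)
noncomputable def aK (k : ℕ) : ℕ := Bool.rec (nat_lit 0) (aK_0_0 k) (Nat.blt k (nat_lit 256))

noncomputable def aT_0_0 (k : ℕ) : ℕ := Nat.land (Nat.shiftRight (nat_lit 0x681) (Nat.mul (Nat.land k (nat_lit 255)) (nat_lit 2))) (nat_lit 3)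
noncomputable def aT (k : ℕ) : ℕ := Bool.rec (nat_lit 0) (aT_0_0 k) (Nat.blt k (nat_lit 256))

noncomputable def aN_0_0 (k : ℕ) : ℕ := Nat.land (Nat.shiftRight (nat_lit 0x24) (Nat.mul (Nat.land k (nat_lit 255)) (nat_lit 2))) (nat_lit 3)
noncomputable def aN (k : ℕ) : ℕ := Bool.rec (nat_lit 0) (aN_0_0 k) (Nat.blt k (nat_lit 256))

noncomputable def tT (i g : ℕ) : ℕ := aT (Nat.add (Nat.mul i (nat_lit 2)) g)

def words : List (List ℕ) := [[0,0],[1,1],[0,1,0,1,0,1],[1]]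

noncomputable def Fk (k : ℕ) : Bool := checkKey (nat_lit 3) (nat_lit 2) (nat_lit 2) (nat_lit 3) aE (wordAt words) (nat_lit 3) (nat_lit 4) aR aK (nat_lit 14) (nat_lit 3) (nat_lit 7) (nat_lit 3) (nat_lit 7) k

noncomputable def cert : Cert where
  sz := 3
  ep := 2
  b := 2
  m := 3
  E := aE
  W := wordAt words
  nrel := 3
  nW := 4
  K := 256
  R := aR
  pk := aK
  fuel := 14
  bp := 3
  mp := 7
  bw := 3
  mw := 7

noncomputable def Fp (i : ℕ) : Bool := ptFin2 (nat_lit 3) (nat_lit 2) tT aN (nat_lit 3) (nat_lit 2) (nat_lit 2) (nat_lit 3) aE (nat_lit 14) i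

end Cfsg.Agent.Lib.TC.Data.HeS5
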